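import Mathlib
import Cfsg.Agent.Grp.AutCard
import Cfsg.Agent.Grp.PFrattini
import Cfsg.Agent.Transfer.Focal

/-! Primes dividing the order of the automorphism group of a `p`-group, and a consequence of
Burnside's normal `p`-complement theorem. -/

set_option autoImplicit false

namespace Cfsg.Agent.FGS

open Subgroup

theorem exists_dvd_pow_sub_one_of_dvd_card_mulAut {P : Type*} [Group P] [Finite P] {p q : ℕ}
    [hp : Fact p.Prime] (hP : IsPGroup p P) (hq : q.Prime) (hqp : q ≠ p)
    (h : q ∣ Nat.card (MulAut P)) : ∃ i, 1 ≤ i ∧ i ≤ Group.rank P ∧ p ^ i ∣ Nat.card P ∧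
      q ∣ p ^ i - 1 := by
  have := Fact.mk hq
  obtain ⟨α, hα⟩ := exists_prime_orderOf_dvd_card' q h
  obtain ⟨r, hr⟩ := IsPGroup.iff_card.1 (hP.to_quotient (frattini P))
  have hc : ∀ x y : P ⧸ frattini P, x * y = y * x := by
    intro x y
    induction x using QuotientGroup.induction_on with | H x => ?_
    induction y using QuotientGroup.induction_on with | H y => ?_
    rw [← QuotientGroup.mk_mul, ← QuotientGroup.mk_mul, QuotientGroup.eq]
    refine Grp.PFrattini.commutator_le_frattini hP ?_
    simpa [commutatorElement_def, mul_assoc, _root_.commutator] using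
      commutator_mem_commutator (mem_top y⁻¹) (mem_top x⁻¹)
  have he : ∀ x : P ⧸ frattini P, x ^ p = 1 := by
    intro x
    induction x using QuotientGroup.induction_on with | H x => ?_
    exact (QuotientGroup.eq_one_iff _).2 (Grp.PFrattini.pow_mem_frattini hP x)
  have hnd : ∀ n : ℕ, ¬ q ∣ p ^ n := fun n h =>
    hqp ((Nat.prime_dvd_prime_iff_eq hq hp.out).1 (hq.dvd_of_dvd_pow h))
  have h1 : orderOf (Grp.autQuotChar (frattini P) α) = q := by
    refine ((Nat.dvd_prime hq).1 (hα ▸ orderOf_map_dvd _ α)).resolve_left fun e => ?_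
    have h2 := Grp.card_dvd_of_trivial_on_frattini hP hr (zpowers α) fun β hβ =>
      (Grp.mem_ker_autQuotChar _).1 ((zpowers_le.2 (orderOf_eq_one_iff.1 e) :
        zpowers α ≤ (Grp.autQuotChar (frattini P)).ker) hβ)
    obtain ⟨k, hk⟩ := IsPGroup.iff_card.1 (hP.to_subgroup (frattini P))
    rw [Nat.card_zpowers, hα, hk, ← pow_mul] at h2
    exact hnd _ h2
  have h2 := orderOf_dvd_natCard (Grp.autQuotChar (frattini P) α)
  rw [h1, Grp.card_mulAut_of_elemAb hc he hr] at h2
  obtain ⟨i, hi, h3⟩ := (Prime.dvd_finsetProd_iff hq.prime _).1 h2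
  rw [Finset.mem_range] at hi
  have h4 : r ≤ Group.rank P := by
    let _ : CommGroup (P ⧸ frattini P) := { (inferInstance : Group _) with mul_comm := hc }
    have h5 := card_dvd_exponent_pow_rank' (P ⧸ frattini P) he
    rw [hr] at h5
    exact ((Nat.pow_dvd_pow_iff_le_right hp.out.one_lt).1 h5).trans
      (Group.rank_le_of_surjective _ (QuotientGroup.mk'_surjective _))
  refine ⟨r - i, by omega, by omega, (pow_dvd_pow p (Nat.sub_le r i)).trans
    (hr ▸ card_quotient_dvd_card _), ((Nat.Prime.dvd_mul hq).1 ?_).resolve_left (hnd i)⟩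
  rwa [Nat.mul_sub, ← pow_add, Nat.add_sub_cancel' hi.le, mul_one]

/-- Burnside: abelian Sylow subgroup whose automorphism group has no prime divisor other than `p`
in common with `G`. -/
theorem hasNormalPComplement_of_aut {G : Type*} [Group G] [Finite G] {p : ℕ} [hp : Fact p.Prime]
    (P : Sylow p G) (hab : IsMulCommutative (P : Subgroup G))
    (h : ∀ q : ℕ, q.Prime → q ≠ p → q ∣ Nat.card G → ¬ q ∣ Nat.card (MulAut P)) :
    HasNormalPComplement p G := by
  refine Transfer.hasNormalPComplement_of_normalizer_le_centralizer P fun g hg => ?_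
  let φ := (P : Subgroup G).normalizerMonoidHom
  have h1 : φ.ker.index = 1 := by
    by_contra hne
    obtain ⟨q, hq, h2⟩ := Nat.exists_prime_and_dvd hne
    have h3 : φ.ker.index ∣ (P : Subgroup G).index := by
      refine (index_dvd_of_le (H := (P : Subgroup G).subgroupOf _) ?_).trans
        (relIndex_dvd_index_of_le le_normalizer)
      rw [normalizerMonoidHom_ker]
      exact subgroupOf_mono _ (Transfer.le_centralizer_self_of_comm hab)
    refine h q hq (fun e => P.not_dvd_index ((dvd_of_eq e.symm).trans (h2.trans h3)))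
      (h2.trans (h3.trans (index_dvd_card _))) (h2.trans ?_)
    rw [index_ker]
    exact card_subgroup_dvd_card _
  rw [index_eq_one, normalizerMonoidHom_ker] at h1
  exact (h1 ▸ mem_top (⟨g, hg⟩ : normalizer ((P : Subgroup G) : Set G)) :
    _ ∈ (centralizer ((P : Subgroup G) : Set G)).subgroupOf _)

theorem hasNormalPComplement_of_rank {G : Type*} [Group G] [Finite G] {p : ℕ} [hp : Fact p.Prime]
    (P : Sylow p G) (hab : IsMulCommutative (P : Subgroup G))
    (h : ∀ q : ℕ, q.Prime → q ≠ p → q ∣ Nat.card G → ∀ i, 1 ≤ i →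
      i ≤ Group.rank (P : Subgroup G) → p ^ i ∣ Nat.card G → ¬ q ∣ p ^ i - 1) :
    HasNormalPComplement p G :=
  hasNormalPComplement_of_aut P hab fun q hq hqp hqG h1 => by
    obtain ⟨i, h2, h3, h5, h4⟩ := exists_dvd_pow_sub_one_of_dvd_card_mulAut P.isPGroup' hq hqp h1
    exact h q hq hqp hqG i h2 h3 (h5.trans (card_subgroup_dvd_card _)) h4

end Cfsg.Agent.FGS
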