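import Mathlib
import Cfsg.Agent.Grp.Card
import Cfsg.Agent.Grp.PFrattini
import Cfsg.Agent.FGS.IndexP

/-!
Breadth and the order of the commutator subgroup of a `p`-group (Vaughan-Lee's theorem, after Skutin).
-/

namespace Cfsg.Agent.FGS.Breadth

open Subgroup
open scoped commutatorElement

universe u

variable {G : Type*} [Group G] [Finite G] {p : ℕ} [hp : Fact p.Prime]

omit [Finite G] in
theorem index_centralizer_coe (C : Subgroup G) (h : C) :
    (centralizer ({h} : Set C)).index = (centralizer ({(h : G)} : Set G)).relIndex C := by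
  rw [relIndex]
  congr 1
  ext a
  rw [mem_subgroupOf, mem_centralizer_singleton_iff, mem_centralizer_singleton_iff, Subtype.ext_iff]
  rfl

theorem relIndex_le_index (A C : Subgroup G) : A.relIndex C ≤ A.index := by
  have := relIndex_le_of_le_right (H := A) (le_top : C ≤ ⊤) index_ne_zero_of_finite
  rwa [relIndex_top_right] at this

theorem index_centralizer_le (C : Subgroup G) (h : C) :
    (centralizer ({h} : Set C)).index ≤ (centralizer ({(h : G)} : Set G)).index :=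
  index_centralizer_coe C h ▸ relIndex_le_index _ _

theorem exists_kernel (hG : IsPGroup p G) {C : Subgroup G} (hC : C.index = p) {x : G} (hx : x ∉ C) :
    ∃ K : Subgroup C, Nat.card (commutator G) = K.index * Nat.card (commutator C) ∧
      K.index ≤ (centralizer ({x} : Set G)).index ∧
      ∀ h : C, h ∉ K → (centralizer ({h} : Set C)).index * p = (centralizer ({(h : G)} : Set G)).index := by
  have hCn := normal_of_index_eq_prime hG hC
  have htop : ∀ {g : G}, g ∉ C → ∀ T : Subgroup G, C ≤ T → g ∈ T → ∀ y, y ∈ T := fun hg T h1 h2 y =>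
    (sup_le h1 (zpowers_le.mpr h2) : _ ≤ T)
      (sup_zpowers_eq_top_of_prime_index (hC ▸ hp.out) hg ▸ mem_top y)
  let π := QuotientGroup.mk' ⁅C, C⁆
  have hπ : ∀ a ∈ C, ∀ b ∈ C, π a * π b = π b * π a := fun a ha b hb => by
    rw [← commutatorElement_eq_one_iff_mul_comm, ← map_commutatorElement]
    exact (QuotientGroup.eq_one_iff _).mpr (commutator_mem_commutator ha hb)
  have hxC : ∀ h ∈ C, ⁅x, h⁆ ∈ C := fun h hh => C.mul_mem (hCn.conj_mem h hh x) (C.inv_mem hh)
  let ψ : C →* G ⧸ ⁅C, C⁆ := MonoidHom.mk' (fun h => π ⁅x, (h : G)⁆) fun a b => by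
    have e : ⁅x, ((a * b : C) : G)⁆ = ⁅x, (a : G)⁆ * (a * ⁅x, (b : G)⁆ * (a : G)⁻¹) := by
      simp only [coe_mul, commutatorElement_def]
      group
    rw [e, map_mul, map_mul, map_mul, hπ a a.2 _ (hxC b b.2), map_inv, mul_inv_cancel_right]
  have hrange : ψ.range = (commutator G).map π := by
    refine le_antisymm ?_ ?_
    · rintro _ ⟨h, rfl⟩
      exact mem_map_of_mem π (commutator_mem_commutator (mem_top _) (mem_top _))
    have hRC : ψ.range ≤ C.map π := by
      rintro _ ⟨h, rfl⟩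
      exact mem_map_of_mem π (hxC h h.2)
    have hn : ψ.range.Normal := ⟨fun r hr g => by
      obtain ⟨g, rfl⟩ := QuotientGroup.mk'_surjective ⁅C, C⁆ g
      refine (mem_normalizer_iff.mp (htop hx ((normalizer (ψ.range : Set _)).comap π)
        (fun c hc => mem_normalizer_fintype fun r hr => ?_)
        (mem_normalizer_fintype ?_) g) r).mp hr
      · obtain ⟨a, ha, rfl⟩ := hRC hr
        rwa [hπ c hc a ha, mul_inv_cancel_right]
      · rintro _ ⟨h, rfl⟩
        refine ⟨⟨x * h * x⁻¹, hCn.conj_mem _ h.2 x⟩, ?_⟩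
        change π _ = π x * π _ * (π x)⁻¹
        rw [← map_inv, ← map_mul, ← map_mul]
        congr 1
        simp only [commutatorElement_def]
        group⟩
    let θ := (QuotientGroup.mk' ψ.range).comp π
    have h1 : ∀ h ∈ C, θ x * θ h = θ h * θ x := fun h hh => by
      rw [← commutatorElement_eq_one_iff_mul_comm, ← map_commutatorElement]
      exact (QuotientGroup.eq_one_iff _).mpr ⟨⟨h, hh⟩, rfl⟩
    have h2 : ∀ a b, θ a * θ b = θ b * θ a := fun a b => by
      refine mem_centralizer_singleton_iff.mp (htop hx ((centralizer {θ b}).comap θ) (fun c hc => ?_) ?_ a)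
      · refine mem_centralizer_singleton_iff.mpr (mem_centralizer_singleton_iff.mp
          (htop hx ((centralizer {θ c}).comap θ) (fun d hd => ?_) ?_ b)).symm
        · refine mem_centralizer_singleton_iff.mpr ?_
          simp only [θ, MonoidHom.comp_apply, ← map_mul (QuotientGroup.mk' ψ.range), hπ d hd c hc]
        · exact mem_centralizer_singleton_iff.mpr (h1 c hc)
      · refine mem_centralizer_singleton_iff.mpr (mem_centralizer_singleton_iff.mp
          (htop hx ((centralizer {θ x}).comap θ) (fun d hd => ?_) ?_ b)).symm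
        · exact mem_centralizer_singleton_iff.mpr (h1 d hd).symm
        · exact mem_centralizer_singleton_iff.mpr rfl
    rw [map_le_iff_le_comap, _root_.commutator, commutator_le]
    intro a _ b _
    refine (QuotientGroup.eq_one_iff (N := ψ.range) _).mp ?_
    change θ _ = 1
    rw [map_commutatorElement, commutatorElement_eq_one_iff_mul_comm, h2]
  refine ⟨ψ.ker, ?_, ?_, fun h hh => ?_⟩
  · rw [index_ker, hrange, ← Grp.card_map_mk'_mul_of_le ⁅C, C⁆
      (show _ ≤ commutator G from commutator_mono le_top le_top),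
      ← card_map_of_injective C.subtype_injective (K := commutator C), map_subtype_commutator]
  · refine le_trans (index_antitone fun h hh => ?_) (relIndex_le_index _ C)
    change π _ = 1
    rw [commutatorElement_eq_one_iff_mul_comm.mpr
      (mem_centralizer_singleton_iff.mp (mem_subgroupOf.mp hh)).symm, map_one]
  · rw [index_centralizer_coe, ← hC]
    refine relIndex_mul_index fun g hg => ?_
    by_contra hgC
    refine hh ?_
    change π _ = 1
    rw [map_commutatorElement, commutatorElement_eq_one_iff_mul_comm]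
    refine mem_centralizer_singleton_iff.mp (htop hgC ((centralizer {π h}).comap π)
      (fun c hc => mem_centralizer_singleton_iff.mpr (hπ c hc h h.2))
      (mem_centralizer_singleton_iff.mpr ?_) x)
    rw [← map_mul, mem_centralizer_singleton_iff.mp hg, map_mul]

theorem exists_hom (hG : IsPGroup p G) {M : Subgroup G} (hM : M.index = p) :
    ∃ φ : G →* Multiplicative (ZMod p), ∀ g, φ g = 1 ↔ g ∈ M := by
  have := normal_of_index_eq_prime hG hM
  let e : G ⧸ M ≃* Multiplicative (ZMod p) := mulEquivOfPrimeCardEq (p := p) hM (by simp)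
  exact ⟨e.toMonoidHom.comp (QuotientGroup.mk' M), fun g => by simp⟩

omit [Finite G] in
theorem exists_pow_eq {φ : G →* Multiplicative (ZMod p)} {a : G} (ha : φ a ≠ 1) :
    ∃ k : ℕ, φ (a ^ k) = Multiplicative.ofAdd 1 := by
  have h : (φ a).toAdd ≠ 0 := ha
  refine ⟨((φ a).toAdd⁻¹).val, ?_⟩
  rw [map_pow, ← ofAdd_toAdd (φ a), ← ofAdd_nsmul, toAdd_ofAdd, nsmul_eq_mul, ZMod.natCast_zmod_val,
    inv_mul_cancel₀ h]

theorem exists_third (hG : IsPGroup p G) {M₁ M₂ : Subgroup G} (h₁ : M₁.index = p) (h₂ : M₂.index = p)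
    (hne : ¬ M₂ ≤ M₁) : ∃ C : Subgroup G, C.index = p ∧ ¬ C ≤ M₁ ∧ (∀ g ∈ C, g ∈ M₁ ↔ g ∈ M₂) ∧
      (p ≠ 2 → ∃ x, x ∉ C ∧ x ∉ M₁ ∧ x ∉ M₂) := by
  obtain ⟨φ₁, hφ₁⟩ := exists_hom hG h₁
  obtain ⟨φ₂, hφ₂⟩ := exists_hom hG h₂
  have hne' : ¬ M₁ ≤ M₂ := fun h => hne
    ((isCoatom_of_prime_index (h₁ ▸ hp.out)).le_iff_eq (isCoatom_of_prime_index (h₂ ▸ hp.out)).1 |>.mp h).le
  obtain ⟨a₀, ha₂, ha₁⟩ := SetLike.not_le_iff_exists.mp hne
  obtain ⟨b₀, hb₁, hb₂⟩ := SetLike.not_le_iff_exists.mp hne'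
  obtain ⟨i, hi⟩ := exists_pow_eq (mt (hφ₁ a₀).mp ha₁)
  obtain ⟨j, hj⟩ := exists_pow_eq (mt (hφ₂ b₀).mp hb₂)
  have hi' := (hφ₂ _).mpr (M₂.pow_mem ha₂ i)
  have hj' := (hφ₁ _).mpr (M₁.pow_mem hb₁ j)
  have h10 : (Multiplicative.ofAdd 1 : Multiplicative (ZMod p)) ≠ 1 := fun h =>
    one_ne_zero (α := ZMod p) h
  have hm : ∀ g, g ∈ (φ₁ / φ₂).ker ↔ φ₁ g = φ₂ g := fun g => by
    rw [MonoidHom.mem_ker, MonoidHom.div_apply, div_eq_one]
  refine ⟨(φ₁ / φ₂).ker, ?_, fun h => h10 ?_, fun g hg => ?_, fun h2 => ⟨a₀ ^ i * (b₀ ^ j)⁻¹, ?_, ?_, ?_⟩⟩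
  · rw [index_ker]
    have hd := card_subgroup_dvd_card (φ₁ / φ₂).range
    rw [show Nat.card (Multiplicative (ZMod p)) = p by simp] at hd
    refine ((Nat.dvd_prime hp.out).mp hd).resolve_left fun h => h10 ?_
    have := mem_bot.mp ((card_eq_one.mp h).le ⟨a₀ ^ i, rfl⟩)
    rwa [MonoidHom.div_apply, hi, hi', div_one] at this
  · have := (hφ₁ _).mpr (h ((hm (a₀ ^ i * b₀ ^ j)).mpr (by rw [map_mul, map_mul, hi, hi', hj, hj', mul_comm])))
    rwa [map_mul, hi, hj', mul_one] at this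
  · rw [← hφ₁, ← hφ₂, (hm g).mp hg]
  · rw [hm, map_mul, map_mul, map_inv, map_inv, hi, hi', hj, hj', inv_one, mul_one, one_mul]
    intro h
    have h3 : (1 : ZMod p) = -1 := h
    have h4 : ((2 : ℕ) : ZMod p) = 0 := by
      rw [Nat.cast_two]; linear_combination h3
    exact h2 ((Nat.prime_dvd_prime_iff_eq hp.out Nat.prime_two).mp ((ZMod.natCast_eq_zero_iff 2 p).mp h4))
  · rw [← hφ₁, map_mul, map_inv, hi, hj', inv_one, mul_one]
    exact h10
  · rw [← hφ₂, map_mul, map_inv, hi', hj, one_mul, inv_eq_one]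
    exact h10

omit [Finite G] in
theorem exists_notMem_notMem {L A B : Subgroup G} (hA : ¬ L ≤ A) (hB : ¬ L ≤ B) :
    ∃ x ∈ L, x ∉ A ∧ x ∉ B := by
  by_contra h
  push Not at h
  refine (SubgroupClass.subset_union (H := L) (K := A) (L := B)).mp (fun x hx => ?_) |>.elim hA hB
  by_cases h1 : x ∈ A
  · exact Or.inl h1
  · exact Or.inr (h x hx h1)

theorem exists_choice (hG : IsPGroup p G) (hc : commutator G ≠ ⊥) {M H : Subgroup G} (hM : M.index = p)
    (hH : H ≤ M ∨ 2 < H.index) :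
    ∃ C : Subgroup G, C.index = p ∧ ¬ C ≤ M ∧ C ⊓ H ≤ M ∧ ∃ x, x ∉ C ∧ x ∉ M ∧ x ∉ H := by
  have hMc := isCoatom_of_prime_index (hM ▸ hp.out)
  by_cases h1 : H ≤ M
  · obtain ⟨y, hy⟩ := exists_notMem_of_index_ne_one (hM ▸ hp.out.one_lt.ne')
    have h2 : zpowers y ≠ ⊤ := fun h => hc (by
      have : IsCyclic G := isCyclic_iff_exists_zpowers_eq_top.mpr ⟨y, h⟩
      exact commutator_eq_bot G)
    obtain ⟨C, hC, hyC⟩ := (eq_top_or_exists_le_coatom (zpowers y)).resolve_left h2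
    obtain ⟨x, -, hx1, hx2⟩ := exists_notMem_notMem (L := ⊤) (A := C) (B := M)
      (fun h => hC.1 (top_le_iff.mp h)) (fun h => hMc.1 (top_le_iff.mp h))
    exact ⟨C, Grp.PFrattini.index_of_isCoatom hG hC, fun h => hy (h (hyC (mem_zpowers y))),
      inf_le_right.trans h1, x, hx1, hx2, fun h => hx2 (h1 h)⟩
  have h2 := hH.resolve_left h1
  obtain ⟨M₂, hM₂, hHM⟩ := (eq_top_or_exists_le_coatom H).resolve_left fun h => by
    rw [h, index_top] at h2; omega
  have hi := Grp.PFrattini.index_of_isCoatom hG hM₂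
  have hne : ¬ M₂ ≤ M := fun h => h1 (hHM.trans h)
  obtain ⟨C, hC, hCM, hC2, hx⟩ := exists_third hG hM hi hne
  refine ⟨C, hC, hCM, fun g hg => (hC2 g hg.1).mpr (hHM hg.2), ?_⟩
  by_cases h3 : M₂ ≤ H
  · obtain ⟨x, hx1, hx2, hx3⟩ := hx fun h => by
      rw [← le_antisymm h3 hHM, hi] at h2; omega
    exact ⟨x, hx1, hx2, fun h => hx3 (hHM h)⟩
  · obtain ⟨x, hx1, hx2, hx3⟩ := exists_notMem_notMem hne h3
    exact ⟨x, fun h => hx2 ((hC2 x h).mpr hx1), hx2, hx3⟩

theorem tri_succ (n : ℕ) : (n + 1) * (n + 1 + 1) / 2 = n * (n + 1) / 2 + (n + 1) := by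
  rw [show (n + 1) * (n + 1 + 1) = n * (n + 1) + 2 * (n + 1) by ring, Nat.add_mul_div_left _ _ two_pos]

/-- The statement proved by induction. -/
def Bound (p : ℕ) (G : Type*) [Group G] : Prop :=
  ∀ (n : ℕ) (H₁ H₂ : Subgroup G), H₁ ≠ ⊤ → (H₂ ≤ H₁ ∨ 2 < H₂.index) →
    (∀ x, x ∉ H₁ → x ∉ H₂ → (centralizer ({x} : Set G)).index ≤ p ^ n) →
    Nat.card (commutator G) ≤ p ^ (n * (n + 1) / 2)

theorem card_lt_of_index {C : Subgroup G} (hC : C.index = p) : Nat.card C < Nat.card G := by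
  rw [← C.card_mul_index, hC]
  exact (Nat.lt_mul_iff_one_lt_right Nat.card_pos).mpr hp.out.one_lt

theorem bound (G : Type u) [Group G] [Finite G] : IsPGroup p G → Bound p G := by
  refine Grp.card_induction (P := fun G _ _ => IsPGroup p G → Bound p G) ?_ G
  intro G _ _ ih hG n H₁ H₂ hH₁ hH₂ hb
  have hp1 := hp.out.one_lt
  by_cases hc : commutator G = ⊥
  · rw [hc, card_bot]
    exact Nat.one_le_pow _ _ hp.out.pos
  obtain ⟨M, hM, hHM⟩ := (eq_top_or_exists_le_coatom H₁).resolve_left hH₁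
  have hMi := Grp.PFrattini.index_of_isCoatom hG hM
  obtain ⟨C, hC, hCM, hCH, x, hxC, hxM, hxH⟩ := exists_choice hG hc hMi (hH₂.imp_left (·.trans hHM))
  obtain ⟨K, hK1, hK2, hK3⟩ := exists_kernel hG hC hxC
  have hK2' := hK2.trans (hb x (fun h => hxM (hHM h)) hxH)
  have hCp := hG.to_subgroup C
  have hClt := card_lt_of_index hC
  set D := M.subgroupOf C with hD
  have hD1 : D ≠ ⊤ := fun h => hCM (subgroupOf_eq_top.mp h)
  have hbG : ∀ h : C, h ∉ D → (centralizer ({(h : G)} : Set G)).index ≤ p ^ n := fun h hh =>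
    hb h (fun h1 => hh (hHM h1)) fun h1 => hh (hCH ⟨h.2, h1⟩)
  have hbC : ∀ h : C, h ∉ D → (centralizer ({h} : Set C)).index ≤ p ^ n := fun h hh =>
    (index_centralizer_le C h).trans (hbG h hh)
  by_cases hKt : K = ⊤
  · rw [hK1, hKt, index_top, one_mul]
    exact ih C hClt hCp n D D hD1 (Or.inl le_rfl) fun h hh _ => hbC h hh
  have hK4 : 1 < K.index := one_lt_index_of_ne_top hKt
  obtain ⟨m, rfl⟩ : ∃ m, n = m + 1 := Nat.exists_eq_succ_of_ne_zero (by
    rintro rfl; rw [pow_zero] at hK2'; omega)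
  have hbK : ∀ h : C, h ∉ D → h ∉ K → (centralizer ({h} : Set C)).index ≤ p ^ m := fun h h1 h2 => by
    have := hbG h h1
    rw [← hK3 h h2, pow_succ] at this
    exact Nat.le_of_mul_le_mul_right this hp.out.pos
  rw [hK1, tri_succ, pow_add, mul_comm]
  by_cases hKD : K ≤ D ∨ 2 < K.index
  · exact Nat.mul_le_mul (ih C hClt hCp m D K hD1 hKD hbK) hK2'
  push Not at hKD
  have hK5 : K.index = 2 := by omega
  obtain rfl : p = 2 := by
    obtain ⟨k, hk⟩ := IsPGroup.iff_card.mp hCp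
    have := K.index_dvd_card
    rw [hK5, hk] at this
    exact ((Nat.prime_dvd_prime_iff_eq Nat.prime_two hp.out).mp (Nat.prime_two.dvd_of_dvd_pow this)).symm
  have hDi : D.index = 2 := by
    have := normal_of_index_eq_prime hG hMi
    have h1 : D.index ∣ 2 := hMi ▸ relIndex_dvd_index_of_normal M C
    exact ((Nat.dvd_prime Nat.prime_two).mp h1).resolve_left fun h => hD1 (index_eq_one.mp h)
  obtain ⟨E, hE, hED, hE2, -⟩ := exists_third hCp hDi hK5 hKD.1
  obtain ⟨y, hyK, hyD⟩ := SetLike.not_le_iff_exists.mp hKD.1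
  obtain ⟨K', hL1, hL2, hL3⟩ := exists_kernel hCp hE (x := y) fun h => hyD ((hE2 y h).mpr hyK)
  have hL2' := hL2.trans (hbC y hyD)
  have hEp := hCp.to_subgroup E
  have hElt := (card_lt_of_index hE).trans hClt
  set D' := D.subgroupOf E with hD'
  have hD'1 : D' ≠ ⊤ := fun h => hED (subgroupOf_eq_top.mp h)
  have hbE : ∀ h : E, h ∉ D' → (centralizer ({(h : C)} : Set C)).index ≤ 2 ^ m := fun h hh =>
    hbK h hh fun h1 => hh ((hE2 h h.2).mpr h1)
  have h1 := ih E hElt hEp m D' D' hD'1 (Or.inl le_rfl) fun h hh _ =>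
    (index_centralizer_le E h).trans (hbE h hh)
  rw [hL1, hK5]
  by_cases hLt : K' = ⊤
  · rw [hLt, index_top, one_mul]
    exact Nat.mul_le_mul h1 (Nat.le_self_pow (Nat.succ_ne_zero m) 2)
  obtain ⟨k, rfl⟩ : ∃ k, m = k + 1 := Nat.exists_eq_succ_of_ne_zero (by
    rintro rfl
    obtain ⟨h, -, h2, h3⟩ := exists_notMem_notMem (L := ⊤) (A := D') (B := K')
      (fun h => hD'1 (top_le_iff.mp h)) (fun h => hLt (top_le_iff.mp h))
    have h4 := hbE h h2
    have h5 : 0 < (centralizer ({h} : Set E)).index := Nat.pos_of_ne_zero index_ne_zero_of_finite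
    rw [← hL3 h h3] at h4
    omega)
  have h4 : 4 ≤ 2 ^ (k + 1 + 1) := by
    have := Nat.two_pow_pos k
    rw [pow_succ, pow_succ]; omega
  by_cases hL4 : 2 < K'.index
  · have h2 := ih E hElt hEp k D' K' hD'1 (Or.inr hL4) fun h h2 h3 => by
      have := hbE h h2
      rw [← hL3 h h3, pow_succ] at this
      omega
    rw [tri_succ, pow_add]
    have h5 : 2 ≤ 2 ^ (k + 1) := Nat.le_self_pow (Nat.succ_ne_zero k) 2
    calc K'.index * Nat.card (commutator E) * 2
        ≤ 2 ^ (k + 1 + 1) * 2 ^ (k * (k + 1) / 2) * 2 ^ (k + 1) :=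
          Nat.mul_le_mul (Nat.mul_le_mul hL2' h2) h5
      _ = _ := by ring
  · calc K'.index * Nat.card (commutator E) * 2
        ≤ 2 * 2 ^ ((k + 1) * (k + 1 + 1) / 2) * 2 :=
          Nat.mul_le_mul_right _ (Nat.mul_le_mul (not_lt.mp hL4) h1)
      _ = 2 ^ ((k + 1) * (k + 1 + 1) / 2) * 4 := by ring
      _ ≤ _ := Nat.mul_le_mul_left _ h4

end Cfsg.Agent.FGS.Breadth
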