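import Mathlib

/-! Fitting's lemma for normal endomorphisms and the Krull–Remak–Schmidt theorem for finite
groups. -/

set_option autoImplicit false

namespace Cfsg.Agent.FGS.KRS

open Subgroup

/-- Directly indecomposable groups. -/
def Indec (A : Type*) [Group A] : Prop :=
  Nontrivial A ∧ ∀ H K : Subgroup A, H.Normal → K.Normal → H ⊓ K = ⊥ → H ⊔ K = ⊤ → H = ⊥ ∨ K = ⊥

theorem exists_pow_idem {M : Type*} [Monoid M] [Finite M] (a : M) :
    ∃ N : ℕ, 0 < N ∧ a ^ N * a ^ N = a ^ N := by
  obtain ⟨i, j, hij, h⟩ : ∃ i j : ℕ, i < j ∧ a ^ i = a ^ j := by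
    obtain ⟨i, j, hij, h⟩ := Finite.exists_ne_map_eq_of_infinite (fun n : ℕ => a ^ n)
    rcases lt_or_gt_of_ne hij with h1 | h1
    · exact ⟨i, j, h1, h⟩
    · exact ⟨j, i, h1, h.symm⟩
  obtain ⟨d, rfl⟩ := Nat.exists_eq_add_of_lt hij
  have h1 : ∀ k : ℕ, a ^ (i + k * (d + 1)) = a ^ i := by
    intro k
    induction k with
    | zero => simp
    | succ k ih =>
      rw [show i + (k + 1) * (d + 1) = i + k * (d + 1) + (d + 1) by ring, pow_add, ih, ← pow_add,
        ← add_assoc, ← h]
  refine ⟨(i + 1) * (d + 1), by positivity, ?_⟩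
  have h2 : (i + 1) * (d + 1) = i + (1 + i * d + d) := by ring
  rw [← pow_add]
  conv_lhs => rw [show (i + 1) * (d + 1) + (i + 1) * (d + 1) =
    (i + (i + 1) * (d + 1)) + (1 + i * d + d) by ring, pow_add, h1]
  rw [← pow_add, ← h2]

/-- An endomorphism is normal if it commutes with the inner automorphisms. -/
def NormalEnd {A : Type*} [Group A] (φ : A →* A) : Prop :=
  ∀ b a : A, φ (b * a * b⁻¹) = b * φ a * b⁻¹

theorem NormalEnd.pow {A : Type*} [Group A] {φ : Monoid.End A} (h : NormalEnd φ) (n : ℕ) :
    NormalEnd (φ ^ n : Monoid.End A) := by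
  induction n with
  | zero => intro b a; rfl
  | succ n ih =>
    intro b a
    rw [pow_succ]
    change (φ ^ n) (φ _) = b * (φ ^ n) (φ a) * b⁻¹
    exact (congrArg _ (h b a)).trans (ih b (φ a))

/-- Fitting's lemma. -/
theorem Indec.injective_or {A : Type*} [Group A] [Finite A] (hA : Indec A) (φ : A →* A)
    (h : NormalEnd φ) : Function.Injective φ ∨ ∀ x, φ x = x → x = 1 := by
  haveI : Finite (Monoid.End A) := Finite.of_injective (fun f : Monoid.End A => (f : A → A))
    DFunLike.coe_injective
  obtain ⟨N, hN, hidem⟩ := exists_pow_idem (M := Monoid.End A) φ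
  obtain ⟨e, he⟩ : ∃ e : A →* A, e = ((show Monoid.End A from φ) ^ N : Monoid.End A) := ⟨_, rfl⟩
  have h1 : ∀ x, e (e x) = e x := fun x => by
    rw [he]; exact DFunLike.congr_fun hidem x
  have h2 : NormalEnd e := he ▸ NormalEnd.pow h N
  have h3 : e.range.Normal := ⟨by
    rintro _ ⟨x, rfl⟩ g
    exact ⟨g * x * g⁻¹, h2 g x⟩⟩
  rcases hA.2 e.ker e.range inferInstance h3 (by
    rw [eq_bot_iff]
    rintro _ ⟨hx, x, rfl⟩
    exact (h1 x).symm.trans hx) (by
    rw [eq_top_iff]
    intro x _
    rw [show x = x * (e x)⁻¹ * e x by group]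
    exact mul_mem_sup (by simp [MonoidHom.mem_ker, h1]) ⟨x, rfl⟩) with h4 | h4
  · left
    rw [injective_iff_map_eq_one]
    intro x hx
    have : e x = 1 := by
      obtain ⟨N, rfl⟩ := Nat.exists_eq_succ_of_ne_zero hN.ne'
      rw [he, pow_succ]
      change ((show Monoid.End A from φ) ^ N : Monoid.End A) (φ x) = 1
      rw [hx, map_one]
    exact (mem_bot.1 (h4 ▸ this : x ∈ (⊥ : Subgroup A)))
  · right
    intro x hx
    have h5 : ∀ n : ℕ, ((show Monoid.End A from φ) ^ n : Monoid.End A) x = x := by
      intro n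
      induction n with
      | zero => rfl
      | succ n ih =>
        rw [pow_succ]
        change ((show Monoid.End A from φ) ^ n : Monoid.End A) (φ x) = x
        rw [hx, ih]
    have : x ∈ e.range := ⟨x, he ▸ h5 N⟩
    rwa [h4, mem_bot] at this

/-- If a pointwise product of two normal endomorphisms of an indecomposable group is injective
then one of them is. -/
theorem Indec.injective_or_injective {A : Type*} [Group A] [Finite A] (hA : Indec A)
    (θ φ ψ : A →* A) (hθ : NormalEnd θ) (hφ : NormalEnd φ) (h : ∀ a, θ a = φ a * ψ a)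
    (hinj : Function.Injective θ) : Function.Injective φ ∨ Function.Injective ψ := by
  let t : A ≃* A := MulEquiv.ofBijective θ (Finite.injective_iff_bijective.1 hinj)
  have ht : ∀ a, t a = θ a := fun _ => rfl
  rcases hA.injective_or (t.symm.toMonoidHom.comp φ) (by
    intro b a
    apply t.injective
    simp only [MulEquiv.toMonoidHom_eq_coe, MonoidHom.coe_comp, MonoidHom.coe_coe,
      Function.comp_apply, MulEquiv.apply_symm_apply]
    rw [ht, hθ, ← ht, MulEquiv.apply_symm_apply, hφ]) with h1 | h1
  · exact Or.inl (Function.Injective.of_comp (f := t.symm) h1)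
  · right
    rw [injective_iff_map_eq_one]
    intro x hx
    apply h1
    apply t.injective
    simp only [MulEquiv.toMonoidHom_eq_coe, MonoidHom.coe_comp, MonoidHom.coe_coe,
      Function.comp_apply, MulEquiv.apply_symm_apply]
    rw [ht, h, hx, mul_one]

section Exchange

variable {ι : Type*} [DecidableEq ι] {B : ι → Type*} [∀ j, Group (B j)]

/-- Projection of a product to the coordinates in `s`. -/
def projOn (s : Finset ι) : ((j : ι) → B j) →* ((j : ι) → B j) where
  toFun x j := if j ∈ s then x j else 1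
  map_one' := by ext j; simp
  map_mul' x y := by ext j; by_cases h : j ∈ s <;> simp [h]

theorem normalEnd_projOn (s : Finset ι) : NormalEnd (projOn (B := B) s) := by
  intro b a
  ext j
  by_cases h : j ∈ s <;> simp [projOn, h]

theorem exists_injective [Fintype ι] {A : Type*} [Group A] [Finite A] (hA : Indec A)
    (f : A →* ((j : ι) → B j)) (g : ((j : ι) → B j) →* A) (hgf : ∀ a, g (f a) = a) :
    ∃ j, Function.Injective (g.comp ((projOn {j}).comp f)) := by
  have hn : ∀ s : Finset ι, NormalEnd (g.comp ((projOn s).comp f)) := by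
    intro s b a
    simp only [MonoidHom.coe_comp, Function.comp_apply]
    rw [map_mul f, map_mul f, map_inv f, normalEnd_projOn s, map_mul, map_mul, map_inv, hgf]
  have key : ∀ s : Finset ι, Function.Injective (g.comp ((projOn s).comp f)) →
      ∃ j, Function.Injective (g.comp ((projOn {j}).comp f)) := by
    intro s
    induction s using Finset.induction_on with
    | empty =>
      intro h
      haveI := hA.1
      obtain ⟨a, ha⟩ := exists_ne (1 : A)
      refine absurd (h (a₁ := a) (a₂ := 1) ?_) ha
      simp only [MonoidHom.coe_comp, Function.comp_apply]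
      congr 1
    | insert j s hj ih =>
      intro h
      rcases hA.injective_or_injective _ (g.comp ((projOn {j}).comp f))
        (g.comp ((projOn s).comp f)) (hn _) (hn _) (by
          intro a
          simp only [MonoidHom.coe_comp, Function.comp_apply]
          rw [← map_mul]
          congr 1
          ext k
          by_cases h1 : k = j
          · subst h1; simp [projOn, hj]
          · simp [projOn, h1]) h with h1 | h1
      · exact ⟨j, h1⟩
      · exact ih h1
  refine key Finset.univ ?_
  intro a b h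
  simp only [MonoidHom.coe_comp, Function.comp_apply] at h
  have h1 : ∀ x : (j : ι) → B j, projOn Finset.univ x = x := fun x => by ext j; simp [projOn]
  rwa [h1, h1, hgf, hgf] at h

theorem bijective_of_comp {A C : Type*} [Group A] [Group C] [Finite A] [Nontrivial A]
    (hC : Indec C) (u : A →* C) (v : C →* A) (hu : u.range.Normal)
    (h : Function.Injective (v.comp u)) : Function.Bijective u := by
  have hs := Finite.injective_iff_surjective.1 h
  have hui : Function.Injective u := Function.Injective.of_comp (f := v) h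
  rcases hC.2 u.range v.ker hu inferInstance (by
    rw [eq_bot_iff]
    rintro _ ⟨⟨x, rfl⟩, hx⟩
    have : x = 1 := h (by simpa using hx)
    simp [this]) (by
    rw [eq_top_iff]
    intro c _
    obtain ⟨a, ha⟩ := hs (v c)
    rw [show c = u a * ((u a)⁻¹ * c) by group]
    refine mul_mem_sup ⟨a, rfl⟩ ?_
    rw [MonoidHom.mem_ker, map_mul, map_inv, ← ha]
    simp) with h1 | h1
  · obtain ⟨a, ha⟩ := exists_ne (1 : A)
    have : u a ∈ u.range := ⟨a, rfl⟩
    rw [h1, mem_bot] at this
    exact absurd (hui (this.trans (map_one u).symm)) ha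
  · refine ⟨hui, fun c => ?_⟩
    obtain ⟨a, ha⟩ := hs (v c)
    exact ⟨a, (MonoidHom.ker_eq_bot_iff v).1 h1 ha⟩

/-- The exchange step: an indecomposable direct factor projects isomorphically on some `B j`. -/
theorem exists_bijective [Fintype ι] {A X : Type*} [Group A] [Finite A] [Group X] (hA : Indec A)
    (hB : ∀ j, Indec (B j)) (e : A × X ≃* ((j : ι) → B j)) :
    ∃ j, Function.Bijective fun a : A => e (a, 1) j := by
  haveI := hA.1
  obtain ⟨j, hj⟩ := exists_injective hA (e.toMonoidHom.comp (MonoidHom.inl A X))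
    ((MonoidHom.fst A X).comp e.symm.toMonoidHom) (fun a => by simp)
  refine ⟨j, bijective_of_comp (hB j)
    ((Pi.evalMonoidHom B j).comp (e.toMonoidHom.comp (MonoidHom.inl A X)))
    (((MonoidHom.fst A X).comp e.symm.toMonoidHom).comp (MonoidHom.mulSingle B j)) ⟨?_⟩ ?_⟩
  · rintro _ ⟨a, rfl⟩ b
    obtain ⟨⟨a', x'⟩, h⟩ := e.surjective (Pi.mulSingle j b)
    refine ⟨a' * a * a'⁻¹, ?_⟩
    have h1 : ((a' * a * a'⁻¹, 1) : A × X) = (a', x') * (a, 1) * (a', x')⁻¹ := by simp
    change e (a' * a * a'⁻¹, 1) j = b * e (a, 1) j * b⁻¹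
    rw [h1, map_mul, map_mul, map_inv, h]
    simp
  · convert hj using 2
    ext a
    simp only [MulEquiv.toMonoidHom_eq_coe, MonoidHom.coe_comp, MonoidHom.coe_coe,
      Function.comp_apply]
    congr 2
    ext k
    by_cases h1 : k = j
    · subst h1; simp [projOn]
    · simp [projOn, h1]

end Exchange

theorem nonempty_cancel {A X C Y : Type*} [Group A] [Group X] [Group C] [Group Y] [Finite A]
    [Finite X] [Finite C] [Finite Y] (e : A × X ≃* C × Y)
    (h : Function.Bijective fun a : A => (e (a, 1)).1) : Nonempty (X ≃* Y) := by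
  have h1 : Nat.card Y = Nat.card X := by
    have h2 := Nat.card_congr e.toEquiv
    rw [Nat.card_prod, Nat.card_prod, Nat.card_eq_of_bijective _ h] at h2
    exact (Nat.eq_of_mul_eq_mul_left Nat.card_pos h2).symm
  let w : Y →* X := (MonoidHom.snd A X).comp (e.symm.toMonoidHom.comp (MonoidHom.inr C Y))
  have h3 : Function.Injective w := by
    rw [injective_iff_map_eq_one]
    intro y hy
    have h4 : e ((e.symm (1, y)).1, 1) = (1, y) := by
      have : ((e.symm (1, y)).1, 1) = e.symm (1, y) := Prod.ext rfl hy.symm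
      rw [this, MulEquiv.apply_symm_apply]
    have h5 : (e.symm (1, y)).1 = 1 := h.1 (by
      change (e (_, 1)).1 = (e 1).1
      rw [h4, map_one]; rfl)
    rw [h5] at h4
    have := congrArg Prod.snd h4
    change (e 1).2 = y at this
    rw [← this, map_one]; rfl
  exact ⟨(MulEquiv.ofBijective w ((Nat.bijective_iff_injective_and_card w).2 ⟨h3, h1⟩)).symm⟩

/-- Splitting off one factor of a product over `Fin (n + 1)`. -/
def piSplit {n : ℕ} (B : Fin (n + 1) → Type*) [∀ j, Group (B j)] (j : Fin (n + 1)) :
    ((k : Fin (n + 1)) → B k) ≃* B j × ((k : Fin n) → B (j.succAbove k)) :=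
  { (Fin.insertNthEquiv B j).symm with map_mul' := fun _ _ => rfl }

theorem krull_schmidt {m : ℕ} : ∀ {n : ℕ} {A : Fin m → Type*} {B : Fin n → Type*}
    [∀ i, Group (A i)] [∀ j, Group (B j)] [∀ i, Finite (A i)] [∀ j, Finite (B j)]
    (_ : ∀ i, Indec (A i)) (_ : ∀ j, Indec (B j))
    (_ : ((i : Fin m) → A i) ≃* ((j : Fin n) → B j)),
    ∃ σ : Fin m ≃ Fin n, ∀ i, Nonempty (A i ≃* B (σ i)) := by
  induction m with
  | zero =>
    intro n A B _ _ _ _ _ hB e
    cases n with
    | zero => exact ⟨Equiv.refl _, fun i => i.elim0⟩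
    | succ n =>
      haveI := (hB 0).1
      haveI : Subsingleton ((j : Fin (n + 1)) → B j) := e.symm.injective.subsingleton
      exact absurd (Function.Surjective.subsingleton (f := fun x : (j : Fin (n + 1)) → B j => x 0)
        (Function.surjective_eval 0)) (not_subsingleton _)
  | succ m ih =>
    intro n A B _ _ _ _ hA hB e
    obtain ⟨j, hj⟩ := exists_bijective (hA 0) hB ((piSplit A 0).symm.trans e)
    cases n with
    | zero => exact j.elim0
    | succ n =>
      obtain ⟨e'⟩ := nonempty_cancel (((piSplit A 0).symm.trans e).trans (piSplit B j)) hj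
      obtain ⟨σ, hσ⟩ := ih (fun i => hA _) (fun i => hB _) e'
      refine ⟨((finSuccEquiv' 0).trans σ.optionCongr).trans (finSuccEquiv' j).symm, fun i => ?_⟩
      rcases Fin.eq_self_or_eq_succAbove 0 i with rfl | ⟨i, rfl⟩
      · have : (((finSuccEquiv' 0).trans σ.optionCongr).trans (finSuccEquiv' j).symm) 0 = j := by
          simp
        rw [this]
        exact ⟨MulEquiv.ofBijective ((Pi.evalMonoidHom B j).comp
          (((piSplit A 0).symm.trans e).toMonoidHom.comp (MonoidHom.inl _ _))) hj⟩
      · have : (((finSuccEquiv' 0).trans σ.optionCongr).trans (finSuccEquiv' j).symm)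
            ((0 : Fin (m + 1)).succAbove i) = j.succAbove (σ i) := by
          rw [Equiv.trans_apply, Equiv.trans_apply, finSuccEquiv'_succAbove, Equiv.optionCongr_apply,
            Option.map_some, finSuccEquiv'_symm_some]
        rw [this]
        exact hσ i

end Cfsg.Agent.FGS.KRS
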