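import Mathlib
import Cfsg.Prelude.Def_SylowChains
import Cfsg.Prelude.Def_LocalEven
import Cfsg.Agent.PLocal.PReduced
import Cfsg.Agent.PLocal.Factorization
import Cfsg.Agent.PLocal.PStable
import Cfsg.Agent.Grp.CardProduct

/-!
# Primitive pairs of characteristic `p` (Kurzweil--Stellmacher 10.1)

* `PP p M₁ M₂`: primitive pair of characteristic `p`.
* `exists_pp`: two distinct maximal `p`-local subgroups forming such a pair.
* `PP.false_of_stab`: no such pair with both members `p`-stable.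
-/

set_option autoImplicit false

namespace Cfsg.Agent.FGS.Prim

open Subgroup Cfsg.Agent.PLocal Cfsg.Agent.PLocal.Amb Cfsg.Agent.Grp
open Cfsg.Agent.PLocal.CP (IsCharP IsPRed opMod RedMod ncl)
open scoped Cfsg.Agent.PLocal.CP commutatorElement

variable {G : Type*} [Group G] {p : ℕ}

/-- A primitive pair of characteristic `p`. -/
structure PP (p : ℕ) (M₁ M₂ : Subgroup G) : Prop where
  ne : M₁ ≠ M₂
  n₁ : ∀ A : Subgroup G, A ≠ ⊥ → A ≤ M₁ ⊓ M₂ → M₁ ≤ 𝐍[A] → M₂ ⊓ 𝐍[A] ≤ M₁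
  n₂ : ∀ A : Subgroup G, A ≠ ⊥ → A ≤ M₁ ⊓ M₂ → M₂ ≤ 𝐍[A] → M₁ ⊓ 𝐍[A] ≤ M₂
  c₁ : IsCharP p M₁
  c₂ : IsCharP p M₂
  o₁ : pCoreOf p M₁ ≤ M₂
  o₂ : pCoreOf p M₂ ≤ M₁

/-- The product of the two `p`-cores. -/
abbrev bb (p : ℕ) (M₁ M₂ : Subgroup G) : Subgroup G := pCoreOf p M₁ ⊔ pCoreOf p M₂

namespace PP

variable {M₁ M₂ : Subgroup G}

theorem symm (h : PP p M₁ M₂) : PP p M₂ M₁ :=
  ⟨h.ne.symm, fun A h1 h2 => h.n₂ A h1 (inf_comm M₁ M₂ ▸ h2),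
    fun A h1 h2 => h.n₁ A h1 (inf_comm M₁ M₂ ▸ h2), h.c₂, h.c₁, h.o₂, h.o₁⟩

theorem not_both (h : PP p M₁ M₂) {A : Subgroup G} (hA : A ≠ ⊥) (hle : A ≤ M₁ ⊓ M₂)
    (h1 : M₁ ≤ 𝐍[A]) (h2 : M₂ ≤ 𝐍[A]) : False :=
  h.ne (le_antisymm (fun _ hx => h.n₂ A hA hle h2 ⟨hx, h1 hx⟩)
    fun _ hx => h.n₁ A hA hle h1 ⟨hx, h2 hx⟩)

theorem core_ne_bot (h : PP p M₁ M₂) : pCoreOf p M₁ ≠ ⊥ := by
  intro h0
  have key : ∀ {M : Subgroup G}, IsCharP p M → pCoreOf p M = ⊥ → M = ⊥ := by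
    intro M hM hM0
    have := hM
    rw [IsCharP, hM0, centralizer_bot', inf_top_eq] at this
    exact le_bot_iff.1 this
  have h1 := key h.c₁ h0
  have h2 := key h.c₂ (le_bot_iff.1 (h1 ▸ h.o₂))
  exact h.ne (h1.trans h2.symm)

theorem bb_le (h : PP p M₁ M₂) : bb p M₁ M₂ ≤ M₁ ⊓ M₂ :=
  sup_le (le_inf (pCoreOf_le p M₁) h.o₁) (le_inf h.o₂ (pCoreOf_le p M₂))

theorem le_normalizer_bb (p : ℕ) (M₁ M₂ : Subgroup G) : M₁ ⊓ M₂ ≤ 𝐍[bb p M₁ M₂] :=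
  Amb.le_normalizer_sup (inf_le_left.trans (le_normalizer_pCoreOf p M₁))
    (inf_le_right.trans (le_normalizer_pCoreOf p M₂))

theorem isPGroup_bb (h : PP p M₁ M₂) : IsPGroup p (bb p M₁ M₂) :=
  Amb.isPGroup_sup (isPGroup_pCoreOf p M₁) (isPGroup_pCoreOf p M₂)
    (h.o₁.trans (le_normalizer_pCoreOf p M₂))

variable [Finite G] [Fact p.Prime]

theorem Y_ne_bot (h : PP p M₁ M₂) : 𝐘[p, M₁] ≠ ⊥ := by
  obtain ⟨T, hT⟩ := exists_isSyl p M₁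
  have hT1 : T ≠ ⊥ := fun h0 => h.core_ne_bot (le_bot_iff.1 (h0 ▸ hT.pCoreOf_le))
  have h1 : ΩZ[p, T] ≠ ⊥ := omegaOne_ne_bot_of_isPGroup (hT.pgrp.to_le inf_le_left)
    (Amb.inf_centralizer_ne_bot hT.pgrp hT.pgrp le_normalizer hT1)
  exact fun h0 => h1 (le_bot_iff.1 (h0 ▸ h.c₁.omegaZ_le_Y hT))

theorem Y_le (h : PP p M₁ M₂) : 𝐘[p, M₁] ≤ M₁ ⊓ M₂ :=
  ((CP.Y_le_pCoreOf p M₁).trans le_sup_left).trans h.bb_le

theorem inf_normalizer_Y_le (h : PP p M₁ M₂) : M₂ ⊓ 𝐍[𝐘[p, M₁]] ≤ M₁ :=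
  h.n₁ _ h.Y_ne_bot h.Y_le (CP.le_normalizer_Y p M₁)

theorem inf_centralizer_Y_le (h : PP p M₁ M₂) : M₂ ⊓ 𝐂[𝐘[p, M₁]] ≤ M₁ :=
  (inf_le_inf_left _ (centralizer_le_normalizer' _)).trans h.inf_normalizer_Y_le

theorem exists_not_le (h : PP p M₁ M₂) :
    ∃ A ∈ maxEA p (bb p M₁ M₂), ¬ A ≤ pCoreOf p M₁ ∨ ¬ A ≤ pCoreOf p M₂ := by
  by_contra hcon
  push Not at hcon
  have h1 : thompsonSubgroupOf p (bb p M₁ M₂) ≤ pCoreOf p M₁ :=
    thompsonSubgroupOf_le_iff.2 fun A hA => (hcon A hA).1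
  have h2 : thompsonSubgroupOf p (bb p M₁ M₂) ≤ pCoreOf p M₂ :=
    thompsonSubgroupOf_le_iff.2 fun A hA => (hcon A hA).2
  have e1 := thompsonSubgroupOf_eq_of_le h1 le_sup_left
  have e2 := thompsonSubgroupOf_eq_of_le h2 le_sup_right
  refine h.not_both (A := thompsonSubgroupOf p (bb p M₁ M₂)) ?_
    ((thompsonSubgroupOf_le _).trans h.bb_le) ?_ ?_
  · refine thompsonSubgroupOf_ne_bot_of_isPGroup h.isPGroup_bb fun h0 => h.core_ne_bot ?_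
    exact le_bot_iff.1 (h0 ▸ le_sup_left)
  · rw [← e1]
    exact (le_normalizer_pCoreOf p M₁).trans (normalizer_le_normalizer_thompsonSubgroupOf _)
  · rw [← e2]
    exact (le_normalizer_pCoreOf p M₂).trans (normalizer_le_normalizer_thompsonSubgroupOf _)

end PP

/-! ### Maximal `p`-local subgroups -/

section exist

variable [Finite G] [Fact p.Prime]

omit [Finite G] [Fact p.Prime] in
theorem max_normalizer_eq {M A : Subgroup G} (hM : IsMaximalPLocal p M) (hA : IsPGroup p A)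
    (hA1 : A ≠ ⊥) (hn : M ≤ 𝐍[A]) : 𝐍[A] = M :=
  hM.2 _ ⟨A, hA, hA1, rfl⟩ hn

omit [Finite G] [Fact p.Prime] in
theorem max_core_ne_bot {M : Subgroup G} (hM : IsMaximalPLocal p M) : pCoreOf p M ≠ ⊥ := by
  obtain ⟨T, hT, hT1, rfl⟩ := hM.1
  exact fun h0 => hT1 (le_bot_iff.1 (h0 ▸ Amb.le_pCoreOf hT le_normalizer le_rfl))

omit [Finite G] [Fact p.Prime] in
theorem max_normalizer_le {M : Subgroup G} (hM : IsMaximalPLocal p M) : 𝐍[M] ≤ M :=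
  (normalizer_le_normalizer_pCoreOf p M).trans (max_normalizer_eq hM (isPGroup_pCoreOf p M)
    (max_core_ne_bot hM) (le_normalizer_pCoreOf p M)).le

omit [Finite G] [Fact p.Prime] in
theorem isPLocal_cj {M : Subgroup G} (hM : IsPLocal p M) (g : G) : IsPLocal p cj(g, M) := by
  obtain ⟨T, hT, hT1, rfl⟩ := hM
  exact ⟨cj(g, T), isPGroup_cj g hT, fun h => hT1 (cj_eq_bot.1 h), (normalizer_cj g T).symm⟩

omit [Finite G] [Fact p.Prime] in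
theorem max_cj {M : Subgroup G} (hM : IsMaximalPLocal p M) (g : G) :
    IsMaximalPLocal p cj(g, M) := by
  refine ⟨isPLocal_cj hM.1 g, fun N hN h => ?_⟩
  rw [← hM.2 _ (isPLocal_cj hN g⁻¹) (cj_le_iff.1 h), cj_cj_inv]

omit [Fact p.Prime] in
theorem exists_max_ge {N : Subgroup G} (hN : IsPLocal p N) : ∃ M, IsMaximalPLocal p M ∧ N ≤ M := by
  obtain ⟨M, hNM, hM⟩ := exists_maximal_ge_of_wellFoundedGT (fun M => IsPLocal p M) N hN
  exact ⟨M, ⟨hM.1, fun L hL h => le_antisymm (hM.2 hL h) h⟩, hNM⟩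

omit [Finite G] [Fact p.Prime] in
theorem normalizer_le_of_max {M A : Subgroup G} (hM : IsMaximalPLocal p M) (hc : IsCharP p M)
    (hA : A ≠ ⊥) (hAM : A ≤ M) (hn : M ≤ 𝐍[A]) : 𝐍[A] ≤ M := by
  have h1 : pCoreOf p A ≠ ⊥ := by
    intro h0
    have h2 : A ⊓ pCoreOf p M = ⊥ := le_bot_iff.1 (h0 ▸ Amb.inf_pCoreOf_le hAM)
    have h3 : A ≤ 𝐂[pCoreOf p M] := by
      rw [← commutator_eq_bot_iff_le_centralizer, eq_bot_iff, ← h2]
      exact le_inf (le_normalizer_iff_commutator_le_left.1 ((pCoreOf_le p M).trans hn))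
        (le_normalizer_iff_commutator_le_right.1 (hAM.trans (le_normalizer_pCoreOf p M)))
    exact hA (le_bot_iff.1 (h2 ▸ le_inf le_rfl ((le_inf hAM h3).trans hc)))
  exact (normalizer_le_normalizer_pCoreOf p A).trans (max_normalizer_eq hM (isPGroup_pCoreOf p A)
    h1 (hn.trans (normalizer_le_normalizer_pCoreOf p A))).le

omit [Finite G] [Fact p.Prime] in
theorem pp_of_syl {M₁ M₂ T : Subgroup G} (h₁ : IsMaximalPLocal p M₁) (h₂ : IsMaximalPLocal p M₂)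
    (c₁ : IsCharP p M₁) (c₂ : IsCharP p M₂) (hne : M₁ ≠ M₂) (t₁ : IsSyl p T M₁)
    (t₂ : IsSyl p T M₂) : PP p M₁ M₂ :=
  ⟨hne, fun _ hA hle hn => inf_le_right.trans (normalizer_le_of_max h₁ c₁ hA
      (hle.trans inf_le_left) hn),
    fun _ hA hle hn => inf_le_right.trans (normalizer_le_of_max h₂ c₂ hA
      (hle.trans inf_le_right) hn), c₁, c₂, t₁.pCoreOf_le.trans t₂.le, t₂.pCoreOf_le.trans t₁.le⟩

theorem exists_common_syl {M₁ M₂ : Subgroup G} (h₁ : IsMaximalPLocal p M₁)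
    (h₂ : IsMaximalPLocal p M₂) (hne : M₁ ≠ M₂) (hd : p ∣ Nat.card ↥(M₁ ⊓ M₂)) :
    ∃ L₁ L₂ T : Subgroup G, IsMaximalPLocal p L₁ ∧ IsMaximalPLocal p L₂ ∧ L₁ ≠ L₂ ∧
      IsSyl p T L₁ ∧ IsSyl p T L₂ := by
  let P : Subgroup G → Prop := fun T => IsPGroup p T ∧ ∃ L₁ L₂ : Subgroup G,
    IsMaximalPLocal p L₁ ∧ IsMaximalPLocal p L₂ ∧ L₁ ≠ L₂ ∧ T ≤ L₁ ∧ T ≤ L₂
  obtain ⟨T₀, hT₀⟩ := exists_isSyl p (M₁ ⊓ M₂)
  obtain ⟨T, hT0, ⟨hT, L₁, L₂, l₁, l₂, hl, t₁, t₂⟩, hmax⟩ := exists_maximal_ge_of_wellFoundedGT P T₀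
    ⟨hT₀.pgrp, M₁, M₂, h₁, h₂, hne, hT₀.le.trans inf_le_left, hT₀.le.trans inf_le_right⟩
  have hT1 : T ≠ ⊥ := fun h0 => (hT₀.eq_bot_iff.1 (le_bot_iff.1 (h0 ▸ hT0))) hd
  have hns : ∀ L, T ≤ L → ¬ IsSyl p T L → ∃ R : Subgroup G, IsPGroup p R ∧ T < R ∧ R ≤ L ∧ R ≤ 𝐍[T] := by
    intro L hL hs
    obtain ⟨S, hS, hTS⟩ := exists_isSyl_ge hT hL
    have : T < S := lt_of_le_of_ne hTS fun h => hs (h ▸ hS)
    exact ⟨S ⊓ 𝐍[T], hS.pgrp.to_le inf_le_left, Amb.lt_inf_normalizer hS.pgrp this,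
      inf_le_left.trans hS.le, inf_le_right⟩
  have key : ∀ L₁ L₂ : Subgroup G, IsMaximalPLocal p L₁ → T ≤ L₂ → IsSyl p T L₁ → ¬ IsSyl p T L₂ →
      ∃ L₁ L₂ T : Subgroup G, IsMaximalPLocal p L₁ ∧ IsMaximalPLocal p L₂ ∧ L₁ ≠ L₂ ∧
      IsSyl p T L₁ ∧ IsSyl p T L₂ := by
    intro L₁ L₂ l₁ t₂ s₁ s₂
    obtain ⟨R, hR, hTR, -, hRn⟩ := hns L₂ t₂ s₂
    obtain ⟨x, hxR, hxT⟩ := SetLike.exists_of_lt hTR
    refine ⟨L₁, cj(x, L₁), T, l₁, max_cj l₁ x, fun h => hxT ?_, s₁, ?_⟩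
    · have hx : x ∈ L₁ := max_normalizer_le l₁ (cj_eq_iff.1 h.symm)
      exact s₁.le_of_normalizes (hR.to_le inf_le_left) (inf_le_right : R ⊓ L₁ ≤ L₁)
        (inf_le_left.trans hRn) ⟨hxR, hx⟩
    · have := s₁.cj x
      rwa [cj_of_mem_normalizer (hRn hxR)] at this
  by_cases s₁ : IsSyl p T L₁ <;> by_cases s₂ : IsSyl p T L₂
  · exact ⟨L₁, L₂, T, l₁, l₂, hl, s₁, s₂⟩
  · exact key L₁ L₂ l₁ t₂ s₁ s₂
  · exact key L₂ L₁ l₂ t₁ s₂ s₁
  · exfalso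
    obtain ⟨N, hN, hTN⟩ := exists_max_ge (p := p) ⟨T, hT, hT1, rfl⟩
    have : ∀ L, IsMaximalPLocal p L → T ≤ L → ¬ IsSyl p T L → L = N := by
      intro L l t s
      obtain ⟨R, hR, hTR, hRL, hRn⟩ := hns L t s
      by_contra hne
      exact hTR.not_ge (hmax ⟨hR, L, N, l, hN, hne, hRL, hRn.trans hTN⟩ hTR.le)
    exact hl ((this L₁ l₁ t₁ s₁).trans (this L₂ l₂ t₂ s₂).symm)

/-- If a maximal `p`-local subgroup is not strongly `p`-embedded, there is a primitive pair of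
maximal `p`-local subgroups. -/
theorem exists_pp (hloc : ∀ M : Subgroup G, IsMaximalPLocal p M → IsCharP p M) {M : Subgroup G}
    (hM : IsMaximalPLocal p M) {g : G} (hg : g ∉ M) (hd : p ∣ Nat.card ↥(M ⊓ cj(g, M))) :
    ∃ M₁ M₂ : Subgroup G, IsMaximalPLocal p M₁ ∧ IsMaximalPLocal p M₂ ∧ PP p M₁ M₂ := by
  obtain ⟨L₁, L₂, T, l₁, l₂, hl, s₁, s₂⟩ := exists_common_syl hM (max_cj hM g)
    (fun h => hg (max_normalizer_le hM (cj_eq_iff.1 h.symm))) hd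
  exact ⟨L₁, L₂, l₁, l₂, pp_of_syl l₁ l₂ (hloc _ l₁) (hloc _ l₂) hl s₁ s₂⟩

omit [Finite G] [Fact p.Prime] in
theorem max_ne_top (hO : pCore p G = ⊥) {M : Subgroup G} (hM : IsMaximalPLocal p M) : M ≠ ⊤ := by
  rintro rfl
  exact max_core_ne_bot hM ((Amb.pCoreOf_top p).trans hO)

theorem dvd_card_max {M : Subgroup G} (hM : IsMaximalPLocal p M) : p ∣ Nat.card M := by
  obtain ⟨T, hT⟩ := exists_isSyl p M
  by_contra h
  exact max_core_ne_bot hM (le_bot_iff.1 (hT.eq_bot_iff.2 h ▸ hT.pCoreOf_le))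

end exist

/-! ### The `p`-stable case -/

section stab

variable [Finite G] [Fact p.Prime]

/-- Quadratic action on normal `p`-subgroups of `M` comes from `O_p(M / C_M(P))`. -/
def Stab (p : ℕ) (M : Subgroup G) : Prop :=
  ∀ P A : Subgroup G, IsPGroup p P → P ≤ M → M ≤ 𝐍[P] → A ≤ M → ⁅⁅P, A⁆, A⁆ = ⊥ →
    A ≤ opMod p 𝐂[P] M

theorem stab_of_transvFree {M : Subgroup G} (h : TransvFree p M) : Stab p M := by
  intro P A hP hPM hn hAM hq a ha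
  have : (P.subgroupOf M).Normal := normal_subgroupOf' hn
  have h1 := h.mem_pCore_of_isPGroup (P.subgroupOf M) (Amb.isPGroup_subgroupOf hP M)
    𝐂[P.subgroupOf M] le_rfl ⟨a, hAM ha⟩ (by
      rw [← map_eq_bot_iff_of_injective _ M.subtype_injective, map_commutator, map_commutator,
        map_subgroupOf_of_le hPM, MonoidHom.map_zpowers, eq_bot_iff, ← hq]
      have : zpowers (M.subtype ⟨a, hAM ha⟩) ≤ A := (zpowers_le).2 ha
      exact commutator_mono (commutator_mono le_rfl this) this)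
  let D := (pCore p (M ⧸ 𝐂[P.subgroupOf M])).comap (QuotientGroup.mk' 𝐂[P.subgroupOf M])
  refine CP.le_opMod (D := D.map M.subtype) (map_subtype_le _) (Amb.le_normalizer_map_subtype D)
    (pRes_le_of_pow ?_) ⟨⟨a, hAM ha⟩, h1, rfl⟩
  rintro _ ⟨d, hd, rfl⟩
  obtain ⟨k, hk⟩ := Amb.isPGroup_iff.1 (isPGroup_pCore' p _) _ hd
  refine ⟨k, ?_⟩
  rw [← map_pow, QuotientGroup.mk'_apply, QuotientGroup.eq_one_iff,
    Amb.centralizer_subgroupOf hPM] at hk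
  exact hk

theorem Stab.le_centralizer_Y {M A : Subgroup G} (h : Stab p M) (hA : A ≤ M)
    (hq : ⁅⁅𝐘[p, M], A⁆, A⁆ = ⊥) : A ≤ 𝐂[𝐘[p, M]] :=
  (h _ A (CP.isPGroup_Y p M) (CP.Y_le p M) (CP.le_normalizer_Y p M) hA hq).trans
    (CP.redMod_iff.1 (CP.isPRed_Y p M).red)

theorem opMod_le_core {M : Subgroup G} (hc : IsCharP p M) :
    opMod p 𝐂[pCoreOf p M] M ≤ pCoreOf p M := by
  have hn : M ≤ 𝐍[𝐂[pCoreOf p M]] := Amb.le_normalizer_centralizer (le_normalizer_pCoreOf p M)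
  refine Amb.le_pCoreOf ?_ (CP.opMod_le _ _ _) (CP.le_normalizer_opMod hn)
  refine isPGroup_of_pRes_le (isPGroup_pCoreOf p M) (le_trans ?_ hc)
  exact le_inf ((pRes_le _ _).trans (CP.opMod_le _ _ _)) (CP.pRes_opMod_le hn)

variable {M₁ M₂ : Subgroup G}

theorem PP.Y_le_core_of_stab (h : PP p M₁ M₂) (s₂ : Stab p M₂) : 𝐘[p, M₁] ≤ pCoreOf p M₂ := by
  refine (s₂ _ _ (isPGroup_pCoreOf p M₂) (pCoreOf_le p M₂) (le_normalizer_pCoreOf p M₂)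
    (h.Y_le.trans inf_le_right) ?_).trans (opMod_le_core h.c₂)
  rw [commutator_eq_bot_iff_le_centralizer]
  exact (le_normalizer_iff_commutator_le_right.1 (h.o₂.trans (CP.le_normalizer_Y p M₁))).trans
    (CP.Y_le_centralizer p M₁)

theorem PP.maxEA_le_centralizer_of_stab (h : PP p M₁ M₂) (s₁ : Stab p M₁) {A : Subgroup G}
    (hA : A ∈ maxEA p (bb p M₁ M₂)) : A ≤ 𝐂[𝐘[p, M₁]] := by
  have hB : bb p M₁ M₂ ≤ M₁ := h.bb_le.trans inf_le_left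
  obtain ⟨h1, h2, h3⟩ := thompson_replacement_maxEA (CP.Y_isEA p M₁)
    ((CP.Y_le_pCoreOf p M₁).trans le_sup_left) (hA.1.trans (hB.trans (CP.le_normalizer_Y p M₁))) hA
  rw [← le_centralizer_iff, ← commutator_eq_bot_iff_le_centralizer]
  by_contra hne
  refine h3 hne ?_
  rw [commutator_eq_bot_iff_le_centralizer, le_centralizer_iff]
  exact s₁.le_centralizer_Y (h1.1.trans hB) h2

theorem PP.maxEA_le_core_of_stab (h : PP p M₁ M₂) (s₁ : Stab p M₁) (s₂ : Stab p M₂)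
    {A : Subgroup G} (hA : A ∈ maxEA p (bb p M₁ M₂)) : A ≤ pCoreOf p M₂ := by
  set V := 𝐘[p, M₁] with hV
  set Q := pCoreOf p M₂ with hQ
  set B := bb p M₁ M₂ with hB
  have hVQ : V ≤ Q := h.Y_le_core_of_stab s₂
  have hQn : M₂ ≤ 𝐍[Q] := le_normalizer_pCoreOf p M₂
  have hQV : Q ≤ 𝐍[V] := h.o₂.trans (CP.le_normalizer_Y p M₁)
  have hVe : IsElementaryAbelian p V := CP.Y_isEA p M₁
  have hcj : ∀ x ∈ M₂, cj(x, V) ≤ 𝐂[V] := by
    intro x hx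
    have h1 : cj(x, V) ≤ Q := cj_le_of_mem_normalizer hVQ (hQn hx)
    have h2 : Q ≤ 𝐍[cj(x, V)] := by
      rw [normalizer_cj, ← cj_of_mem_normalizer (hQn hx)]
      exact cj_mono x hQV
    refine s₁.le_centralizer_Y (h1.trans h.o₂) ?_
    rw [commutator_eq_bot_iff_le_centralizer]
    exact (le_normalizer_iff_commutator_le_right.1 (hVQ.trans h2)).trans
      (isEA_le_centralizer (isEA_map hVe _))
  set W := ncl V M₂ with hW
  have hWQ : W ≤ Q := CP.ncl_le hVQ hQn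
  have hWn : M₂ ≤ 𝐍[W] := CP.le_normalizer_ncl V M₂
  have hWV : W ≤ 𝐂[V] := CP.ncl_le_iff.2 hcj
  have hWW : W ≤ 𝐂[W] := CP.le_centralizer_ncl hWV hWn
  have hWe : IsElementaryAbelian p W := by
    refine isEA_mono (CP.omegaZ_isEA W) (CP.ncl_le (CP.le_omegaZ hVe (CP.le_ncl V M₂)
      (le_centralizer_iff.1 hWV)) (hWn.trans (CP.normalizer_le_normalizer_omegaZ W)))
  have hBM : B ≤ M₂ := h.bb_le.trans inf_le_right
  have hCn : M₂ ≤ 𝐍[𝐂[W]] := Amb.le_normalizer_centralizer hWn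
  set D := opMod p 𝐂[W] M₂ with hD
  have hDM : D ≤ M₂ := CP.opMod_le _ _ _
  have hDn : M₂ ≤ 𝐍[D] := CP.le_normalizer_opMod hCn
  have hBD : B ⊓ D ≤ Q := by
    have hX : IsPGroup p ↥(B ⊓ D) := h.isPGroup_bb.to_le inf_le_left
    obtain ⟨S, hS, hXS⟩ := exists_isSyl_ge hX (inf_le_right : B ⊓ D ≤ D)
    set C := D ⊓ 𝐂[W] with hC
    have hCD : D ≤ 𝐍[C] := Amb.le_normalizer_inf le_normalizer (hDM.trans hCn)
    have hsup : C ⊔ S = D :=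
      hS.sup_eq_of_pRes_le (le_inf (pRes_le _ _) (CP.pRes_opMod_le hCn)) inf_le_left
    have hCH : C ≤ M₁ ⊓ M₂ := le_inf (le_trans (inf_le_inf hDM
      (Amb.centralizer_anti (CP.le_ncl V M₂))) h.inf_centralizer_Y_le) (inf_le_left.trans hDM)
    have h1 : SnIn (B ⊓ D) (B ⊓ D ⊔ C) := SnIn.of_le_normalizer le_sup_left (sup_le le_normalizer
      (Amb.le_normalizer_inf (hCH.trans (PP.le_normalizer_bb p M₁ M₂))
        (inf_le_left.trans le_normalizer)))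
    have h2 : SnIn (B ⊓ D ⊔ C) (S ⊔ C) :=
      (SnIn.of_isPGroup hS.pgrp hXS).sup_sup (hS.le.trans hCD)
    rw [sup_comm S C, hsup] at h2
    exact CP.le_pCoreOf_of_snIn ((h1.trans h2).trans (SnIn.of_le_normalizer hDM hDn)) hX
  by_cases hWA : ⁅W, A⁆ = ⊥
  · rw [commutator_eq_bot_iff_le_centralizer, le_centralizer_iff] at hWA
    exact le_trans (le_inf hA.1 ((le_inf (hA.1.trans hBM) hWA).trans (CP.inf_le_opMod hCn))) hBD
  exfalso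
  obtain ⟨h1, h2, h3⟩ := thompson_replacement_maxEA hWe (hWQ.trans le_sup_right)
    (hA.1.trans (hBM.trans hWn)) hA
  generalize ⁅W, A⁆ ⊔ A ⊓ 𝐂[⁅W, A⁆] = A' at h1 h2 h3
  have h4 : A' ≤ Q := le_trans (le_inf h1.1 (s₂ W A' (isEA_isPGroup hWe)
    (hWQ.trans (pCoreOf_le p M₂)) hWn (h1.1.trans hBM) h2)) hBD
  refine h3 hWA ?_
  rw [commutator_eq_bot_iff_le_centralizer, hW, CP.ncl_le_iff]
  intro x hx
  rw [cj_le_iff, ← centralizer_cj, le_centralizer_iff]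
  refine h.maxEA_le_centralizer_of_stab s₁ (mem_maxEA_of_card_le h1 ?_ (isEA_map h1.2.1 _)
    (card_cj _ _).ge)
  exact (cj_le_of_mem_normalizer h4 (hQn (inv_mem hx))).trans le_sup_right

/-- There is no primitive pair of characteristic `p` with both members `p`-stable. -/
theorem PP.false_of_stab (h : PP p M₁ M₂) (s₁ : Stab p M₁) (s₂ : Stab p M₂) : False := by
  obtain ⟨A, hA, h1 | h1⟩ := h.exists_not_le
  · exact h1 (h.symm.maxEA_le_core_of_stab s₂ s₁ (by rwa [bb, sup_comm]))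
  · exact h1 (h.maxEA_le_core_of_stab s₁ s₂ hA)

end stab

end Cfsg.Agent.FGS.Prim
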