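import Mathlib
import Cfsg.Agent.FGS.SchurBasic

/-!
The central extension of a group `G` by an abelian group `W` defined by a bimultiplicative map
`β : G → G → W` (Heisenberg construction).
-/

set_option autoImplicit false

namespace Cfsg.Agent.FGS

open Cfsg
open scoped commutatorElement

variable {G W : Type*} [Group G] [CommGroup W]

/-- Pairs `(g, w)` with product `(g, w)(h, w') = (g h, w w' β(g, h))`. -/
@[ext] structure BilinExt (β : G →* G →* W) where
  /-- the component in `G` -/
  fst : G
  /-- the component in `W` -/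
  snd : W

namespace BilinExt

variable {β : G →* G →* W}

instance instMul : Mul (BilinExt β) := ⟨fun x y => ⟨x.fst * y.fst, x.snd * y.snd * β x.fst y.fst⟩⟩
instance instOne : One (BilinExt β) := ⟨⟨1, 1⟩⟩
instance instInv : Inv (BilinExt β) := ⟨fun x => ⟨x.fst⁻¹, x.snd⁻¹ * β x.fst x.fst⟩⟩

@[simp] theorem mul_fst (x y : BilinExt β) : (x * y).fst = x.fst * y.fst := rfl
@[simp] theorem mul_snd (x y : BilinExt β) : (x * y).snd = x.snd * y.snd * β x.fst y.fst := rfl
@[simp] theorem one_fst : (1 : BilinExt β).fst = 1 := rfl
@[simp] theorem one_snd : (1 : BilinExt β).snd = 1 := rfl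
@[simp] theorem inv_fst (x : BilinExt β) : x⁻¹.fst = x.fst⁻¹ := rfl
@[simp] theorem inv_snd (x : BilinExt β) : x⁻¹.snd = x.snd⁻¹ * β x.fst x.fst := rfl

instance instGroup : Group (BilinExt β) :=
  Group.ofLeftAxioms
    (fun x y z => by
      ext
      · simp [mul_assoc]
      · simp only [mul_snd, mul_fst, map_mul, MonoidHom.mul_apply]
        simp only [mul_assoc, mul_comm, mul_left_comm])
    (fun x => by ext <;> simp)
    (fun x => by
      ext
      · simp
      · simp only [mul_snd, inv_snd, inv_fst, map_inv, MonoidHom.inv_apply, one_snd]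
        rw [mul_right_comm x.snd⁻¹, inv_mul_cancel, one_mul, mul_inv_cancel])

/-- As a set the extension is the product. -/
def equivProd (β : G →* G →* W) : BilinExt β ≃ G × W where
  toFun x := (x.fst, x.snd)
  invFun x := ⟨x.1, x.2⟩
  left_inv _ := rfl
  right_inv _ := rfl

instance instFinite [Finite G] [Finite W] : Finite (BilinExt β) :=
  Finite.of_equiv _ (equivProd β).symm

/-- The projection onto `G`. -/
def proj (β : G →* G →* W) : BilinExt β →* G where
  toFun := fst
  map_one' := rfl
  map_mul' _ _ := rfl

@[simp] theorem proj_apply (x : BilinExt β) : proj β x = x.fst := rfl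

/-- The inclusion of `W`. -/
def incl (β : G →* G →* W) : W →* BilinExt β where
  toFun w := ⟨1, w⟩
  map_one' := rfl
  map_mul' _ _ := by ext <;> simp

@[simp] theorem incl_fst (w : W) : (incl β w).fst = 1 := rfl
@[simp] theorem incl_snd (w : W) : (incl β w).snd = w := rfl

theorem proj_surjective : Function.Surjective (proj β) := fun g => ⟨⟨g, 1⟩, rfl⟩

theorem incl_injective : Function.Injective (incl β) := fun _ _ h => congrArg snd h

theorem ker_proj : (proj β).ker = (incl β).range := by
  ext x
  constructor
  · intro hx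
    exact ⟨x.snd, BilinExt.ext (Eq.symm hx) rfl⟩
  · rintro ⟨w, rfl⟩; rfl

theorem ker_proj_le_center : (proj β).ker ≤ Subgroup.center _ := by
  rw [ker_proj]
  rintro _ ⟨w, rfl⟩
  rw [Subgroup.mem_center_iff]
  intro g
  ext <;> simp [mul_comm]

/-- The kernel of the projection is `W`. -/
noncomputable def kerEquiv (β : G →* G →* W) : (proj β).ker ≃* W :=
  (MulEquiv.subgroupCongr ker_proj).trans (MonoidHom.ofInjective incl_injective).symm

theorem incl_div_mem_commutator {g h : G} (hgh : g * h = h * g) :
    incl β (β g h / β h g) ∈ commutator (BilinExt β) := by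
  have h1 := Subgroup.commutator_mem_commutator (H₁ := ⊤) (H₂ := ⊤)
    (g₁ := (⟨g, 1⟩ : BilinExt β)) (g₂ := ⟨h, 1⟩) trivial trivial
  rw [commutator_def]
  convert h1 using 1
  rw [commutatorElement_def, eq_mul_inv_iff_mul_eq, eq_mul_inv_iff_mul_eq]
  ext
  · simp [hgh, -map_div]
  · simp [-map_div]

/-- If the elements `β(g,h)/β(h,g)` for commuting `g, h` generate `W`, the extension is stem. -/
theorem isStemExtension_proj
    (h : Subgroup.closure {w | ∃ g h : G, g * h = h * g ∧ w = β g h / β h g} = ⊤) :
    IsStemExtension (proj β) := by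
  refine ⟨proj_surjective, ker_proj_le_center, ?_⟩
  rw [ker_proj, MonoidHom.range_eq_map, ← h, Subgroup.map_le_iff_le_comap, Subgroup.closure_le]
  rintro _ ⟨g, k, hgk, rfl⟩
  exact incl_div_mem_commutator hgk

end BilinExt

/-- The bimultiplicative map `(x, y) ↦ f x * g y` into a commutative ring. -/
def mulBilin {R : Type*} [CommRing R] (f g : G →* Multiplicative R) :
    G →* G →* Multiplicative R where
  toFun x :=
    { toFun := fun y => Multiplicative.ofAdd ((f x).toAdd * (g y).toAdd)
      map_one' := by simp
      map_mul' := fun y z => by simp [mul_add] }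
  map_one' := by ext; simp
  map_mul' x y := by ext; simp [add_mul]

@[simp] theorem mulBilin_apply {R : Type*} [CommRing R] (f g : G →* Multiplicative R) (x y : G) :
    mulBilin f g x y = Multiplicative.ofAdd ((f x).toAdd * (g y).toAdd) := rfl

/-- Two homomorphisms to `ZMod d` and commuting elements dual to them give a stem extension with
kernel `ZMod d`. -/
theorem isStemExtension_mulBilin_zmod {d : ℕ} (f g : G →* Multiplicative (ZMod d)) {x y : G}
    (hxy : x * y = y * x) (h1 : f x = Multiplicative.ofAdd 1) (h2 : g y = Multiplicative.ofAdd 1)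
    (h3 : f y = 1) : IsStemExtension (BilinExt.proj (mulBilin f g)) := by
  apply BilinExt.isStemExtension_proj
  rw [eq_top_iff]
  intro w _
  have h4 : Multiplicative.ofAdd (1 : ZMod d) ∈ Subgroup.closure
      {w | ∃ a b : G, a * b = b * a ∧ w = mulBilin f g a b / mulBilin f g b a} :=
    Subgroup.subset_closure ⟨x, y, hxy, by simp [h1, h2, h3]⟩
  obtain ⟨k, hk⟩ := ZMod.intCast_surjective w.toAdd
  have : w = Multiplicative.ofAdd (1 : ZMod d) ^ k := by
    rw [← ofAdd_zsmul, zsmul_one, hk]; rfl
  rw [this]
  exact zpow_mem h4 k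

end Cfsg.Agent.FGS
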